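import Mathlib
import Cfsg.Agent.TT.Models
import Cfsg.Agent.TT.Local
import Cfsg.Agent.Class.Sp.Simple

/-! Local spaces of the classical models: reducedness and solvability. -/

set_option autoImplicit false

namespace Cfsg.Agent.TT

open Subgroup Module

variable {G G₁ G₂ : Type*} [Group G] [Group G₁] [Group G₂] {D : Set G} {D₁ : Set G₁}
  {D₂ : Set G₂}

theorem IsTT.vtriv_of_pCore [Finite G] (hD : IsTT D) (hc : Conn D)
    (h2 : pCore 2 (closure D) ≤ center (closure D)) : VTriv D := by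
  intro a ha b hb hab
  by_contra hne
  have e := fiso_subtype (closure D) (subset_closure (k := D))
  let a' : closure D := ⟨a, subset_closure ha⟩
  let b' : closure D := ⟨b, subset_closure hb⟩
  exact hne (congrArg Subtype.val (eq_of_vrel (hD.class_closure hc ⟨a, ha⟩)
    ⟨a', ha, b', hb, fun h => hne (congrArg Subtype.val h)⟩ h2 (a := a') (b := b') ha hb
    ((e.vrel_iff (hD.preimage _) hD (a := a') (b := b') ha hb).1 hab)))

theorem IsTT.wtriv_of_pCore [Finite G] (hD : IsTT D)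
    (h3 : pCore 3 (closure D) ≤ center (closure D)) : WTriv D := by
  intro a ha b hb hab
  have e := fiso_subtype (closure D) (subset_closure (k := D))
  let a' : closure D := ⟨a, subset_closure ha⟩
  let b' : closure D := ⟨b, subset_closure hb⟩
  exact congrArg Subtype.val (eq_of_wrel hD.group h3 (a := a') (b := b') ha hb
    ((e.wrel_iff (hD.preimage _) hD (a := a') (b := b') ha hb).1 hab))

theorem IsTT.pCore_two_le (hD : IsTT D) (hv : VTriv D) :
    pCore 2 (closure D) ≤ center (closure D) :=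
  let ⟨_, e, _⟩ := (fiso_subtype (closure D) (subset_closure (k := D))).exists_symm
    (hD.preimage _).conj
  pCore_two_le_center_of_vrel hD.group (e.vtriv hD (hD.preimage _) hv)

theorem wrel_of_mul_mem_odd [Finite G] (hD : IsThreeTranspositionSet D) {N : Subgroup G}
    [hN : N.Normal] (h3 : (Nat.card N).Coprime 2) {a b : G} (ha : a ∈ D) (hb : b ∈ D)
    (h : a * b ∈ N) : WRel D a b := by
  have k0 : ∀ a ∈ D, ∀ b ∈ D, Commute a b → a * b ∈ N → a = b := fun a ha b hb hab h => by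
    by_contra hne
    have := N.orderOf_dvd_natCard h
    rw [orderOf_mul_of_commute hD ha hb hab hne] at this
    have := Nat.Coprime.eq_one_of_dvd h3.symm this
    omega
  have key : ∀ a ∈ D, ∀ b ∈ D, a * b ∈ N → ∀ e ∈ D, e ≠ a ∧ Commute a e → e ≠ b ∧ Commute b e := by
    rintro a ha b hb h e he ⟨hne, hae⟩
    have hab : (a : G ⧸ N) = b := by
      rw [QuotientGroup.eq, inv_eq hD ha]; exact h
    refine ⟨?_, ?_⟩
    · rintro rfl
      exact hne (k0 a ha e hb hae h).symm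
    by_contra hbe
    have h3' := cube hD hb he hbe
    have h2' := (commute_iff_sq hD ha he).1 hae
    have e1 : ((a * e : G) : G ⧸ N) ^ 3 = 1 := by
      rw [QuotientGroup.mk_mul, hab, ← QuotientGroup.mk_mul, ← QuotientGroup.mk_pow, h3']; rfl
    have e2 : ((a * e : G) : G ⧸ N) ^ 2 = 1 := by
      rw [← QuotientGroup.mk_pow, h2']; rfl
    rw [pow_succ, e2, one_mul, QuotientGroup.eq_one_iff] at e1
    exact hne (k0 a ha e he hae e1).symm
  have h' : b * a ∈ N := by
    have := inv_mem h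
    rwa [mul_inv_rev, inv_eq hD ha, inv_eq hD hb] at this
  exact fun e he => ⟨key a ha b hb h e he, key b hb a ha h' e he⟩

theorem IsTT.oddCore_le [Finite G] (hD : IsTT D) (hw : WTriv D) :
    oddCore (closure D) ≤ center (closure D) := by
  obtain ⟨_, e, _⟩ := (fiso_subtype (closure D) (subset_closure (k := D))).exists_symm
    (hD.preimage _).conj
  have h := e.wtriv hD (hD.preimage _) hw
  have hG := hD.group
  exact fun x hx => mem_center_of_commute hG.2.2 fun d hd => commute_of_conj_eq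
    (h d hd _ (hG.2.1 x d hd) (wrel_of_mul_mem_odd hG.1 (Grp.pPrimeCore_coprime 2 _) hd
      (hG.2.1 x d hd) (mul_conj_mem (mul_self hG.1 hd) hx))).symm

theorem Prim.not_isSolvable [Finite G] (h : Prim D) : ¬ Group.IsSolvable (closure D) := by
  intro hs
  obtain ⟨_, e, _⟩ := (fiso_subtype (closure D) (subset_closure (k := D))).exists_symm
    (h.toIsTT.preimage _).conj
  obtain ⟨L, hL, -⟩ := (e.prim (h.toIsTT.preimage _) h).exists_comp closure_closure_coe_preimage
  exact PLocal.qsS_not_le_solvable (H := ⊤) hL.2 inferInstance le_top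

theorem Prim.not_isSolvable_of_subset [Finite G] {E : Set G} (h : Prim E) (hE : E ⊆ D) :
    ¬ Group.IsSolvable (closure D) := fun _ =>
  h.not_isSolvable (Group.isSolvable_of_isSolvable_injective (inclusion_injective (closure_mono hE)))

/-- In a polar space of isotropic points the local spaces are not `V`-trivial. -/
theorem Coord.not_vtriv_loc {K V : Type*} [Field K] [AddCommGroup V] [Module K V]
    {b : V → V → K} {S : Set V} {τ : V → G} (h : Coord b S τ D)
    (hc : ∀ u ∈ S, ∀ v ∈ S, Commute (τ u) (τ v) ↔ b v u = 0)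
    (hadd : ∀ x u v, b x (u + v) = b x u + b x v)
    (hS : ∀ u ∈ S, ∀ v ∈ S, b v u = 0 → u + v ≠ 0 → u + v ∈ S) {d e : G} (hd : d ∈ D)
    (he : e ∈ loc D d) : ¬ VTriv (loc D d) := by
  intro hv
  obtain ⟨u, hu, rfl⟩ := h.surj d hd
  obtain ⟨v, hv', rfl⟩ := h.surj e he.1
  have k : ∀ c : K, v ≠ c • u := fun c e => he.2.1 ((h.inj v hv' u hu).2 ⟨c, e⟩)
  have k' : ∀ c : K, u ≠ c • v := fun c e => he.2.1 ((h.inj u hu v hv').2 ⟨c, e⟩).symm
  have h0 := (hc u hu v hv').1 he.2.2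
  have h1 := hS u hu v hv' h0 fun e => k (-1) (by rw [neg_one_smul, eq_neg_iff_add_eq_zero, add_comm, e])
  have h2 : τ (u + v) ∈ loc D (τ u) := by
    refine ⟨h.mem _ h1, fun e => ?_, ((hc _ h1 u hu).2 ?_).symm⟩
    · obtain ⟨c, e⟩ := (h.inj _ h1 u hu).1 e
      exact k (c - 1) (by rw [sub_smul, ← e, one_smul, add_sub_cancel_left])
    · rw [hadd, (hc u hu u hu).1 (Commute.refl _), (hc v hv' u hu).1 he.2.2.symm, add_zero]
  have h3 := hv _ h2 _ he fun z hz => by
    obtain ⟨w, hw, rfl⟩ := h.surj z hz.1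
    rw [hc _ h1 w hw, hc v hv' w hw, hadd, (hc u hu w hw).1 hz.2.2, zero_add]
  obtain ⟨c, e⟩ := (h.inj _ h1 v hv').1 h3
  exact k' (c - 1) (by rw [sub_smul, ← e, one_smul, add_sub_cancel_right])

variable {n : ℕ}

theorem SpCoord.commute_iff {V : Type*} [AddCommGroup V] [Module (ZMod 2) V]
    {B : LinearMap.BilinForm (ZMod 2) V} {τ : V → G} (h : SpCoord B τ D) {u v : V} (hu : u ≠ 0)
    (hv : v ≠ 0) : Commute (τ u) (τ v) ↔ B v u = 0 := by
  refine (h.2.2.commute_iff hu hv).trans (or_iff_left_of_imp fun e => ?_)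
  obtain ⟨c, rfl⟩ := (h.2.2.inj u hu v hv).1 e
  rw [map_smul, h.1 v, smul_zero]

theorem IsSp.not_vtriv_loc (h : IsSp D n) {d e : G} (hd : d ∈ D) (he : e ∈ loc D d) :
    ¬ VTriv (loc D d) :=
  let ⟨_, _, h⟩ := h
  h.2.2.not_vtriv_loc (fun _ hu _ hv => h.commute_iff hu hv) (fun _ _ _ => map_add _ _ _)
    (fun _ _ _ _ _ h => h) hd he

open Class.U in
theorem UCoord.commute_iff_herm {τ : (Fin n → Class.GF4) → G} (h : UCoord n τ D)
    {u v : Fin n → Class.GF4} (hu : u ≠ 0 ∧ hermForm n Class.GF4 2 u u = 0)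
    (hv : v ≠ 0 ∧ hermForm n Class.GF4 2 v v = 0) :
    Commute (τ u) (τ v) ↔ hermForm n Class.GF4 2 v u = 0 := by
  have : UF Class.GF4 2 := UF.of_card Class.card_GF4
  refine (Coord.commute_iff h hu hv).trans (or_iff_left_of_imp fun e => ?_)
  obtain ⟨c, rfl⟩ := (Coord.inj h u hu v hv).1 e
  rw [herm_smul_right, hv.2, mul_zero]

open Class.U in
theorem IsU.not_vtriv_loc (h : IsU D n) {d e : G} (hd : d ∈ D) (he : e ∈ loc D d) :
    ¬ VTriv (loc D d) := by
  have : UF Class.GF4 2 := UF.of_card Class.card_GF4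
  obtain ⟨τ, h⟩ := h
  exact Coord.not_vtriv_loc h (fun _ hu _ hv => h.commute_iff_herm hu hv)
    (fun _ _ _ => herm_add_right _ _ _) (fun u hu v hv h0 h1 => ⟨h1, by
      rw [herm_add_left, herm_add_right, herm_add_right, hu.2, hv.2, h0, herm_comm_zero h0]
      simp⟩) hd he

theorem FEq.exists_loc (h : FEq D₁ D₂) (h₁ : IsTT D₁) (h₂ : IsTT D₂) (hc : Conn D₂) {a : G₁}
    (ha : a ∈ D₁) {d : G₂} (hd : d ∈ D₂) : FEq (loc D₁ a) (loc D₂ d) :=
  let ⟨_, e⟩ := h
  FEq.trans ⟨_, e.loc h₁ h₂ ha⟩ (h₂.feq_loc hc (e.mem ha) hd)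

theorem IsSym.not_wtriv_loc (h : IsSym D 5) (hD : IsTT D) (hc : Conn D) {d : G} (hd : d ∈ D) :
    ¬ WTriv (loc D d) := by
  intro hw
  have hT := isTT_swap (n := 5) (by omega)
  obtain ⟨φ, e⟩ := (FEq.exists_loc h hT hD hc (a := Equiv.swap 0 1) ⟨0, 1, by decide, rfl⟩ hd).symm
    (hT.loc _)
  refine absurd (e.wtriv (hD.loc _) (hT.loc _) hw (Equiv.swap 2 3)
    ⟨⟨2, 3, by decide, rfl⟩, by decide, by unfold Commute SemiconjBy; decide⟩ (Equiv.swap 2 4)
    ⟨⟨2, 4, by decide, rfl⟩, by decide, by unfold Commute SemiconjBy; decide⟩ ?_) (by decide)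
  rintro _ ⟨⟨x, y, hxy, rfl⟩, h1, h2⟩
  unfold Commute SemiconjBy at *
  revert x y
  decide +kernel

theorem IsSym.not_vtriv_loc (h : IsSym D 6) (hD : IsTT D) (hc : Conn D) {d : G} (hd : d ∈ D) :
    ¬ VTriv (loc D d) := by
  intro hw
  have hT := isTT_swap (n := 6) (by omega)
  obtain ⟨φ, e⟩ := (FEq.exists_loc h hT hD hc (a := Equiv.swap 0 1) ⟨0, 1, by decide, rfl⟩ hd).symm
    (hT.loc _)
  refine absurd (e.vtriv (hD.loc _) (hT.loc _) hw (Equiv.swap 2 3)
    ⟨⟨2, 3, by decide, rfl⟩, by decide, by unfold Commute SemiconjBy; decide⟩ (Equiv.swap 4 5)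
    ⟨⟨4, 5, by decide, rfl⟩, by decide, by unfold Commute SemiconjBy; decide⟩ ?_) (by decide)
  rintro _ ⟨⟨x, y, hxy, rfl⟩, h1, h2⟩
  unfold Commute SemiconjBy at *
  revert x y
  decide +kernel

open Class.Sp in
theorem prim_spD {m : ℕ} (hm : 2 ≤ m) : Prim (spD m) := by
  have hD := S0440.result m (by omega)
  have h := (spD_model m).1
  let i : Fin m := ⟨0, by omega⟩
  let j : Fin m := ⟨1, by omega⟩
  have hi : (Pi.single (.inl i) 1 : Fin m ⊕ Fin m → ZMod 2) ≠ 0 := by simp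
  have hj : (Pi.single (.inl j) 1 : Fin m ⊕ Fin m → ZMod 2) ≠ 0 := by simp
  have hw : Wide (spD m) := by
    refine ⟨_, h.2.2.mem _ hi, _, h.2.2.mem _ hj, fun e => ?_,
      (h.commute_iff hi hj).2 (form_single_inl_inl j i)⟩
    obtain ⟨c, e⟩ := (h.2.2.inj _ hi _ hj).1 e
    simpa [i, j, Pi.single_apply] using congrFun e (.inl i)
  exact prim_of_group (group_of_class hD) (prim_of_index hD (two_of_wide hw)
    (index_commutator_le hD) fun N _ hN => (le_center_or_commutator_le N).resolve_left hN) hw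

theorem IsSp.prim (h : IsSp D n) (h4 : 4 ≤ n) : Prim D := by
  obtain ⟨m, rfl, e⟩ := h.feq_spD
  obtain ⟨_, e⟩ := e.symm h.tt
  exact e.prim h.tt (prim_spD (by omega))

/-- The embedding of the symplectic space of rank `k` in the one of rank `k + 1`. -/
def spEmb (k : ℕ) : (Fin k ⊕ Fin k → ZMod 2) →ₗ[ZMod 2] (Fin (k + 1) ⊕ Fin (k + 1) → ZMod 2) where
  toFun w := Sum.elim (Fin.cons 0 fun i => w (.inl i)) (Fin.cons 0 fun i => w (.inr i))
  map_add' u v := by ext (i | i) <;> induction i using Fin.cases <;> simp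
  map_smul' c v := by ext (i | i) <;> induction i using Fin.cases <;> simp

open Class.Sp in
/-- The local space of a symplectic space contains a symplectic space of smaller rank. -/
theorem IsSp.exists_prim_loc (h : IsSp D n) (h6 : 6 ≤ n) {d : G} (hd : d ∈ D) :
    ∃ E ⊆ loc D d, Prim E := by
  have hc := (h.prim (by omega)).conn
  obtain ⟨m, rfl, e⟩ := h.feq_spD
  obtain ⟨k, rfl⟩ : ∃ k, m = k + 1 := ⟨m - 1, by omega⟩
  have h1 := (spD_model (k + 1)).1
  have hi : (Pi.single (.inl 0) 1 : Fin (k + 1) ⊕ Fin (k + 1) → ZMod 2) ≠ 0 := by simp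
  obtain ⟨φ, e⟩ := FEq.exists_loc (e.symm h.tt) h1.2.2.tt h.tt hc (h1.2.2.mem _ hi) hd
  have hf : Function.Injective (spEmb k) := fun u v huv => by
    ext (i | i)
    · simpa [spEmb] using congrFun huv (.inl i.succ)
    · simpa [spEmb] using congrFun huv (.inr i.succ)
  have h2 := h1.2.2.comap (spEmb k) hf (b' := fun u v => Class.sympB k (ZMod 2) u v)
    (fun u v => by simp [form_eq, Fin.sum_univ_succ, spEmb]) (S' := {v | v ≠ 0})
    (fun w => by simp [hf]) (E := {d | ∃ w ∈ {v | v ≠ 0}, tv (spEmb k w) 1 = d}) fun _ => Iff.rfl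
  obtain ⟨ψ, e2⟩ := (spD_model k).1.2.2.feq h2
  have h3 := e2.prim h2.tt (prim_spD (by omega))
  have h4 : {d | ∃ w ∈ {v | v ≠ 0}, tv (spEmb k w) 1 = d} ⊆
      loc (spD (k + 1)) (tv (Pi.single (.inl 0) 1) 1) := by
    rintro _ ⟨w, hw, rfl⟩
    have hw' : spEmb k w ≠ 0 := by simpa [hf] using hw
    refine ⟨h1.2.2.mem _ hw', fun e => ?_, (h1.commute_iff hi hw').2 ?_⟩
    · obtain ⟨c, e⟩ := (h1.2.2.inj _ hi _ hw').1 e.symm
      simpa [spEmb] using congrFun e (.inl 0)
    · rw [Class.sympB_apply, form_single_inl_right]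
      rfl
  have h5 : φ '' {d | ∃ w ∈ {v | v ≠ 0}, tv (spEmb k w) 1 = d} ⊆ loc D d := by
    rintro _ ⟨x, hx, rfl⟩
    exact e.mem (h4 hx)
  exact ⟨_, h5, (e.restrict h4).prim ((h.tt.loc d).sub h5 (e.closed_image h4 h3.conj)) h3⟩

end Cfsg.Agent.TT
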