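import Mathlib
import Cfsg.Agent.Class.Orth.Eichler
import Cfsg.Agent.Class.Orth.Std

/-! First cohomology of orthogonal groups over `F₂` on the natural module. -/

set_option autoImplicit false

namespace Cfsg.Agent.Class.Orth

open QuadraticMap Subgroup

variable {V : Type*} [AddCommGroup V] [Module (ZMod 2) V] {Q : QuadraticForm (ZMod 2) V}

theorem z2_add_self (x : V) : x + x = 0 := by
  rw [← two_smul (ZMod 2), show (2 : ZMod 2) = 0 from rfl, zero_smul]

theorem z2_sub (x y : V) : x - y = x + y := by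
  rw [sub_eq_add_neg, neg_eq_of_add_eq_zero_right (z2_add_self y)]

theorem refl_z2 {a : V} (ha : Q a = 1) (x : V) : (refl Q a).1 x = x + polar Q x a • a := by
  rw [refl_apply, ha, inv_one, one_mul, z2_sub]

theorem polar_z2 (x : V) : polar Q x x = 0 := by
  rw [polar_self', show (2 : ZMod 2) = 0 from rfl, zero_mul]

theorem refl_z2_conj {a b : V} (ha : Q a = 1) (h : polar Q b a = 1) :
    refl Q a * refl Q b * refl Q a = refl Q (b + a) := by
  have := conj_refl (refl Q a) b
  rwa [refl_inv, refl_z2 ha, h, one_smul] at this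

theorem Q_add_z2 {a b : V} (ha : Q a = 1) (hb : Q b = 1) (h : polar Q b a = 1) : Q (b + a) = 1 := by
  rw [Q_add, ha, hb, h]; rfl

theorem refl_z2_braid {a b : V} (ha : Q a = 1) (hb : Q b = 1) (h : polar Q b a = 1) :
    refl Q a * refl Q b * refl Q a = refl Q b * refl Q a * refl Q b := by
  rw [refl_z2_conj ha h, refl_z2_conj hb (polar_comm Q a b ▸ h), add_comm]

theorem refl_z2_cube {a b : V} (ha : Q a = 1) (hb : Q b = 1) (h : polar Q b a = 1) :
    refl Q a * refl Q b * (refl Q a * refl Q b) = refl Q b * refl Q a := by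
  rw [← mul_assoc, refl_z2_braid ha hb h, mul_assoc, refl_mul_self, mul_one]

theorem refl_z2_mem {a b : V} (ha : Q a = 1) (hb : Q b = 1) (h : polar Q b a = 1) :
    refl Q a * refl Q b ∈ commutator (OG Q) := by
  rw [← refl_z2_cube hb ha (polar_comm Q a b ▸ h)]
  have := commutator_mem_commutator (mem_top (refl Q b)) (mem_top (refl Q a))
  rwa [commutatorElement_def, refl_inv, refl_inv, mul_assoc] at this

theorem h1_z2 [FiniteDimensional (ZMod 2) V] (hQ : ND Q) {k : ℕ} (e d : Fin (k + 1) → V)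
    (he : ∀ i, Q (e i) = 1) (hd : ∀ i j, polar Q (d i) (e j) = if i = j then 1 else 0)
    (hc : ∀ i, i = 0 ∨ ∃ j < i, polar Q (e i) (e j) = 1) (rk : V → ℕ)
    (hrk : ∀ v, Q v = 1 → (∃ i, v = e i) ∨ ∃ i, polar Q v (e i) = 1 ∧ rk (v + e i) < rk v)
    (hE : ∀ H : Subgroup (OG Q), (∀ v w, Q v ≠ 0 → Q v = Q w → refl Q v * refl Q w ∈ H) →
      ∀ u v, Q u = 0 → polar Q u v = 0 → eichler Q u v ∈ H) (f : OG Q → V)
    (hf : ∀ g ∈ commutator (OG Q), ∀ h ∈ commutator (OG Q), f (g * h) = f g + g.1 (f h)) :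
    ∃ v, ∀ g ∈ commutator (OG Q), f g = g.1 v - v := by
  have ind : ∀ P : V → Prop, (∀ i, P (e i)) →
      (∀ v i, Q v = 1 → polar Q v (e i) = 1 → P (v + e i) → P v) → ∀ v, Q v = 1 → P v :=
    fun P h1 h2 v hv => by
      induction' hn : rk v using Nat.strong_induction_on with n ih generalizing v
      rcases hrk v hv with ⟨i, rfl⟩ | ⟨i, k1, k2⟩
      · exact h1 i
      · exact h2 v i hv k1 (ih _ (hn ▸ k2) _ (Q_add_z2 (he i) hv k1) rfl)
  have f1 : f 1 = 0 := by simpa using hf 1 (one_mem _) 1 (one_mem _)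
  let K : V → Subgroup (OG Q) := fun x =>
    { carrier := {g | g ∈ commutator (OG Q) ∧ f g = g.1 x - x}
      one_mem' := ⟨one_mem _, by rw [f1, OG.one_apply, sub_self]⟩
      mul_mem' := fun {g h} hg hh => ⟨mul_mem hg.1 hh.1, by
        rw [hf g hg.1 h hh.1, hg.2, hh.2, map_sub, OG.mul_apply]; abel⟩
      inv_mem' := fun {g} hg => ⟨inv_mem hg.1, by
        have := hf _ (inv_mem hg.1) g hg.1
        rw [inv_mul_cancel, f1, hg.2, map_sub, OG.inv_apply_apply] at this
        rw [eq_neg_of_add_eq_zero_left this.symm, neg_sub]⟩ }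
  have ex : ∀ a b, Q a = 1 → Q b = 1 → polar Q b a = 1 → ∃ x, refl Q a * refl Q b ∈ K x :=
    fun a b ha hb h => by
      have m := refl_z2_mem ha hb h
      have c : refl Q a * refl Q b * (refl Q a * refl Q b * (refl Q a * refl Q b)) = 1 := by
        rw [refl_z2_cube ha hb h, mul_assoc, ← mul_assoc (refl Q b), refl_mul_self, one_mul,
          refl_mul_self]
      generalize refl Q a * refl Q b = r at m c
      have k := hf r m _ (mul_mem m m)
      rw [c, f1] at k
      refine ⟨f r + f (r * r), m, ?_⟩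
      rw [map_add, eq_neg_of_add_eq_zero_right k.symm, hf r m r m]
      linear_combination (norm := module) (2 : ℤ) • z2_add_self (f r)
  have inv : ∀ a b x, refl Q a * refl Q b ∈ K x → refl Q b * refl Q a ∈ K x := fun a b x h => by
    simpa only [mul_inv_rev, refl_inv] using inv_mem h
  have A0 : ∀ a b c x y, Q a = 1 → Q b = 1 → Q c = 1 → polar Q b a = 1 → polar Q c a = 1 →
      polar Q b c = 0 → refl Q a * refl Q b ∈ K x → refl Q a * refl Q c ∈ K y →
      polar Q x a = polar Q y a := fun a b c x y ha hb hc h1 h2 h3 k1 k2 => by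
    have h1' := polar_comm Q b a ▸ h1
    have h2' := polar_comm Q c a ▸ h2
    have h3' := polar_comm Q b c ▸ h3
    have k3 := hf _ (inv _ _ _ k1).1 _ k2.1
    have m := mul_mem (inv _ _ _ k1).1 k2.1
    rw [mul_assoc, ← mul_assoc (refl Q a), refl_mul_self, one_mul] at k3 m
    have k4 := congrArg (fun t => polar Q t c) k3
    simp only [(inv _ _ _ k1).2, k2.2, OG.mul_apply, refl_z2 ha, refl_z2 hb, refl_z2 hc, z2_sub,
      polar_add_left, polar_smul_left', polar_z2, h1, h2, h3, h1', h2', h3'] at k4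
    have k5 : polar Q (f (refl Q b * refl Q c)) c = 0 := by
      by_cases e : b = c
      · rw [e, refl_mul_self, f1, polar_zero_left]
      have c1 : refl Q b * refl Q c * (refl Q b * refl Q c) = 1 := by
        have := conj_refl (refl Q b) c
        rw [refl_inv, refl_apply_of_polar_eq_zero h3'] at this
        rw [← mul_assoc, this, refl_mul_self]
      have k6 := hf _ m _ m
      rw [c1, f1, OG.mul_apply, refl_z2 hb, refl_z2 hc, add_assoc, ← add_assoc, z2_add_self,
        zero_add, polar_add_left, polar_smul_left', h3', mul_zero, add_zero] at k6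
      have k7 := congrArg (fun t => polar Q t a) k6
      simp only [polar_zero_left, polar_add_left, polar_smul_left', h1, h2, mul_one] at k7
      rw [← CharTwo.add_eq_zero.1 k7.symm, ← smul_add, ← z2_sub] at k6
      exact (smul_eq_zero.1 k6.symm).resolve_right (sub_ne_zero.2 fun k => e k.symm)
    rw [k5] at k4
    revert k4
    generalize polar Q x a = a1, polar Q y a = a2, polar Q x b = a3, polar Q y b = a4,
      polar Q x c = a5, polar Q y c = a6
    revert a1 a2 a3 a4 a5 a6
    decide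
  have th : ∀ a b x, Q a = 1 → polar Q b a = 1 → refl Q a * refl Q b ∈ K x →
      refl Q a * refl Q (b + a) ∈ K x := fun a b x ha h k => by
    rw [← refl_z2_conj ha h, mul_assoc, ← mul_assoc, refl_mul_self, one_mul]
    exact inv _ _ _ k
  have A : ∀ a b c x y, Q a = 1 → Q b = 1 → Q c = 1 → polar Q b a = 1 → polar Q c a = 1 →
      refl Q a * refl Q b ∈ K x → refl Q a * refl Q c ∈ K y → polar Q x a = polar Q y a :=
    fun a b c x y ha hb hc h1 h2 k1 k2 => by
      rcases (by decide : ∀ t : ZMod 2, t = 0 ∨ t = 1) (polar Q b c) with h3 | h3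
      · exact A0 a b c x y ha hb hc h1 h2 h3 k1 k2
      · exact A0 a (b + a) c x y ha (Q_add_z2 ha hb h1) hc
          (by rw [polar_add_left, h1, polar_z2, add_zero]) h2
          (by rw [polar_add_left, h3, polar_comm, h2]; rfl) (th a b x ha h1 k1) k2
  obtain ⟨φ, hφ⟩ : ∃ φ : V → ZMod 2, ∀ a b x, Q a = 1 → Q b = 1 → polar Q b a = 1 →
      refl Q a * refl Q b ∈ K x → polar Q x a = φ a := by
    have : ∀ a, ∃ t, ∀ b x, Q a = 1 → Q b = 1 → polar Q b a = 1 →
        refl Q a * refl Q b ∈ K x → polar Q x a = t := fun a => by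
      by_cases h : ∃ c y, Q c = 1 ∧ polar Q c a = 1 ∧ refl Q a * refl Q c ∈ K y
      · obtain ⟨c, y, h1, h2, h3⟩ := h
        exact ⟨_, fun b x ha hb k1 k2 => A a b c x y ha hb h1 k1 h2 k2 h3⟩
      · exact ⟨0, fun b x _ hb k1 k2 => absurd ⟨b, x, hb, k1, k2⟩ h⟩
    exact ⟨fun a => (this a).choose, fun a => (this a).choose_spec⟩
  let v := ∑ i, φ (e i) • d i
  have hv : ∀ a, Q a = 1 → polar Q v a = φ a := ind _ (fun j => by
      rw [← polarBilin_apply_apply, map_sum, LinearMap.sum_apply]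
      simp [hd]) fun a i ha h k => by
    have h' := polar_comm Q a (e i) ▸ h
    obtain ⟨x, hx⟩ := ex _ _ (he i) ha h
    have k1 := hφ _ _ x (he i) ha h hx
    have k2 := hφ _ _ x ha (he i) h' (inv _ _ _ hx)
    have k3 := hφ _ _ x (Q_add_z2 (he i) ha h) (he i)
      (by rw [polar_add_right, h', polar_z2, add_zero]) (inv _ _ _ (th _ _ x (he i) h hx))
    have k4 : polar Q v (e i) = φ (e i) := by
      rw [← polarBilin_apply_apply, map_sum, LinearMap.sum_apply]
      simp [hd]
    rw [← k3, polar_add_right, polar_add_right, k4, k1, k2] at k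
    exact add_right_cancel k
  let N := closure {g : OG Q | ∃ a b, Q a = 1 ∧ Q b = 1 ∧ polar Q b a = 1 ∧ g = refl Q a * refl Q b}
  have hN : N.Normal := ⟨fun n hn g => by
    have : N.map (MulAut.conj g).toMonoidHom ≤ N := by
      rw [MonoidHom.map_closure]
      apply Subgroup.closure_mono
      rintro _ ⟨_, ⟨a, b, ha, hb, h, rfl⟩, rfl⟩
      exact ⟨g.1 a, g.1 b, by simpa, by simpa, by simpa, by
        simp [← conj_refl, mul_assoc]⟩
    exact this ⟨n, hn, rfl⟩⟩
  have st : ∀ a b, Q a = 1 → Q b = 1 → polar Q b a = 1 → refl Q b * refl Q (e 0) ∈ N →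
      refl Q a * refl Q (e 0) ∈ N := fun a b ha hb h k => by
    have := mul_mem (subset_closure ⟨a, b, ha, hb, h, rfl⟩ : _ ∈ N) k
    rwa [mul_assoc, ← mul_assoc (refl Q b), refl_mul_self, one_mul] at this
  have B : ∀ a, Q a = 1 → refl Q a * refl Q (e 0) ∈ N := ind _ (fun i => by
      induction' i using WellFoundedLT.induction with i ih
      rcases hc i with rfl | ⟨j, h1, h2⟩
      · rw [refl_mul_self]; exact one_mem _
      · exact st _ _ (he i) (he j) (polar_comm Q _ _ ▸ h2) (ih j h1)) fun a i ha h =>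
    st _ _ ha (Q_add_z2 (he i) ha h) (by rw [polar_add_left, polar_z2, zero_add, polar_comm, h])
  have hr : ∀ a b, Q a ≠ 0 → Q a = Q b → refl Q a * refl Q b ∈ N := fun a b ha h => by
    have ha' := ((by decide : ∀ t : ZMod 2, t = 0 ∨ t = 1) (Q a)).resolve_left ha
    have := mul_mem (B a ha') (inv_mem (B b (h ▸ ha')))
    rwa [mul_inv_rev, mul_assoc, mul_inv_cancel_left, refl_inv] at this
  refine ⟨v, fun g hg => ((closure_le (K v)).2 ?_
    (hQ.commutator_le_of_refl N (hE N hr) hr hg)).2⟩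
  rintro _ ⟨a, b, ha, hb, h, rfl⟩
  obtain ⟨x, hx⟩ := ex a b ha hb h
  have k1 := (hφ _ _ x ha hb h hx).trans (hv a ha).symm
  have k2 := (hφ _ _ x hb ha (polar_comm Q b a ▸ h) (inv _ _ _ hx)).trans (hv b hb).symm
  refine ⟨hx.1, hx.2.trans ?_⟩
  simp only [OG.mul_apply, refl_z2 ha, refl_z2 hb, polar_add_left, polar_smul_left', k1, k2]
  abel

/-- Binary digits as a vector. -/
def bitv {ι : Type} (ix : ι → ℕ) (n : ℕ) : ι → ZMod 2 := fun i => if n.testBit (ix i) then 1 else 0

theorem h1_mat {ι : Type} [Fintype ι] [DecidableEq ι] (Q : QuadraticForm (ZMod 2) (ι → ZMod 2))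
    (q : (ι → ZMod 2) → ZMod 2) (hq : ∀ v, Q v = q v) (hQ : ND Q) {k : ℕ}
    (e d : Fin (k + 1) → ι → ZMod 2) (he : ∀ i, q (e i) = 1)
    (hd : ∀ i j, q (d i + e j) - q (d i) - q (e j) = if i = j then 1 else 0)
    (hc : ∀ i, i = 0 ∨ ∃ j < i, q (e i + e j) - q (e i) - q (e j) = 1) (rk : (ι → ZMod 2) → ℕ)
    (hrk : ∀ v, q v = 1 → (∃ i, v = e i) ∨
      ∃ i, q (v + e i) - q v - q (e i) = 1 ∧ rk (v + e i) < rk v)
    (hE : Fintype.card ι ≠ 4 ∨ ∀ u v, q u = 0 → q (u + v) - q u - q v = 0 → q v = 0 →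
      u = 0 ∨ v = 0 ∨ v = u) (f : Omega (ZMod 2) q → ι → ZMod 2)
    (hf : ∀ g h, f (g * h) = f g + Matrix.mulVec (((g : isometryGroup (ZMod 2) q) :
      GL ι (ZMod 2)) : Matrix ι ι (ZMod 2)) (f h)) :
    ∃ v, ∀ g : Omega (ZMod 2) q, f g = Matrix.mulVec (((g : isometryGroup (ZMod 2) q) :
      GL ι (ZMod 2)) : Matrix ι ι (ZMod 2)) v - v := by
  classical
  obtain rfl : ⇑Q = q := funext hq
  let E := isoEquiv Q Q hq
  have m : ∀ {g}, g ∈ commutator (OG Q) → E.symm g ∈ Omega (ZMod 2) Q := fun hg =>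
    (mem_commutator_equiv E.symm _).2 hg
  obtain ⟨v, hv⟩ := h1_z2 hQ e d he hd hc rk hrk (fun H hr u v hu hv => by
      rcases hE with h | h
      · exact hQ.eichler_mem_of_refl_mul_refl (Or.inr (by simpa using h)) H hr hu hv
      by_cases hv0 : Q v = 0
      · rcases h u v hu hv hv0 with rfl | rfl | rfl
        · rw [eichler_zero_left]; exact one_mem _
        · rw [eichler_zero]; exact one_mem _
        · have := eichler_self_smul hu 1
          rw [one_smul] at this
          rw [this]; exact one_mem _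
      · rw [eichler_eq_refl_mul_refl hu hv hv0]
        exact hr _ _ hv0 (Q_sub_smul_singular hu hv _).symm)
    (fun g => if hg : g ∈ commutator (OG Q) then f ⟨_, m hg⟩ else 0) fun g hg h hh => by
      rw [dif_pos hg, dif_pos hh, dif_pos (mul_mem hg hh), ← isoEquiv_symm_mulVec Q Q hq, ← hf]
      congr 2
      exact map_mul _ _ _
  refine ⟨v, fun g => ?_⟩
  have hg := (mem_commutator_equiv E _).2 g.2
  have := hv _ hg
  rw [dif_pos hg, isoEquiv_apply] at this
  rw [← this]
  congr 1
  exact Subtype.ext (E.symm_apply_apply _).symm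

end Cfsg.Agent.Class.Orth
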